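import Cfsg.Agent.GT.Transfer
import Cfsg.Agent.GT.Coprime
import Cfsg.Agent.PG.Basic

/-!
# Subgroups with a Sylow subgroup of prime order in the centre of its normalizer
-/

set_option autoImplicit false
set_option linter.unusedSectionVars false

namespace Cfsg.Agent.J4T

open Cfsg.Agent.PG Cfsg.Agent.GT Subgroup

variable {G : Type*} [Group G] [Finite G] {p q : ℕ} {M Q : Subgroup G} {x : G}

theorem syl_zp' (hp : p.Prime) (hx : x ∈ M) (o : orderOf x = p) (h : ¬ p * p ∣ Nat.card M) :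
    IsPiHallOf {p} (zpowers x) M :=
  syl_mk hp (zpowers_le.2 hx) (isPGroup_of_card_eq_prime (by rw [Nat.card_zpowers, o])) fun e => h (by
    rw [← card_mul_relIndex (zpowers_le.2 hx), Nat.card_zpowers, o]; exact Nat.mul_dvd_mul_left p e)

/-- The normal `p`-complement. -/
theorem t5_hall (hp : p.Prime) (hx : x ∈ M) (o : orderOf x = p) (h2 : ¬ p * p ∣ Nat.card M)
    (hN : M ⊓ N[zpowers x] ≤ C1[x]) : IsPiHallOf {p}ᶜ (piCoreOf {p}ᶜ M) M :=
  Burnside_hall hp (syl_zp' hp hx o h2) (by rwa [cent_zpowers])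

/-- (T5): an `x`-invariant Sylow `q`-subgroup. -/
theorem t5 (hp : p.Prime) (hq : q.Prime) (hqp : q ≠ p) (hx : x ∈ M) (o : orderOf x = p)
    (h2 : ¬ p * p ∣ Nat.card M) (hN : M ⊓ N[zpowers x] ≤ C1[x]) :
    ∃ Q, IsPiHallOf {q} Q M ∧ x ∈ N[Q] ∧ IsPiHallOf {q} (Q ⊓ C1[x]) (M ⊓ C1[x]) ∧
      Nat.card Q ≡ Nat.card ↥(Q ⊓ C1[x]) [MOD p] := by
  have := Fact.mk hp
  have hK := t5_hall hp hx o h2 hN
  have hS := syl_zp' hp hx o h2
  have hn : M ≤ N[piCoreOf {p}ᶜ M] := self_le_norm_piCoreOf _ _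
  have hA : zpowers x ≤ N[piCoreOf {p}ᶜ M] := (zpowers_le.2 hx).trans hn
  have hc : (Nat.card (piCoreOf {p}ᶜ M)).Coprime (Nat.card (zpowers x)) := by
    rw [Nat.card_zpowers, o]
    exact ((Nat.Prime.coprime_iff_not_dvd hp).2 fun h => hK.isPi p hp h rfl).symm
  have hs : Group.IsSolvable (zpowers x) := inferInstance
  obtain ⟨Q, hQ, hxQ⟩ := coprime_exists_syl hq (.inr hs) hA hc
  have h1 := coprime_syl_inf_cent hq (.inr hs) hA hc hQ hxQ
  have h3 := hK.inf_of_norm (inf_le_left : M ⊓ C1[x] ≤ M) (.inr (inf_le_left.trans hn))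
  rw [← inf_assoc, inf_eq_left.2 hK.le] at h3
  rw [cent_zpowers] at h1
  refine ⟨Q, hQ.trans_single hK hqp, hxQ (mem_zpowers x), h1.trans_single h3 hqp, ?_⟩
  rw [← cent_zpowers]
  exact card_modEq_card_inf_cent (syl_isPGroup hp hS) hxQ

theorem syl_card_gcd (hq : q.Prime) (h : IsPiHallOf {q} Q M) {n : ℕ} (hn : ¬ q ^ (n + 1) ∣ Nat.card M) :
    Nat.card Q = Nat.gcd (Nat.card M) (q ^ n) := by
  have := Fact.mk hq
  obtain ⟨k, hk⟩ := IsPGroup.iff_card.1 (syl_isPGroup hq h)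
  have h1 := h.card_mul
  have h2 : k ≤ n := by
    by_contra e
    exact hn ((pow_dvd_pow q (by omega)).trans (hk ▸ card_dvd_of_le h.le))
  obtain ⟨j, rfl⟩ := Nat.exists_eq_add_of_le h2
  rw [← h1, hk, pow_add, Nat.gcd_mul_left,
    (Nat.Coprime.pow_right j ((Nat.Prime.coprime_iff_not_dvd hq).2 (syl_not_dvd hq h)).symm).gcd_eq_one, mul_one]

/-- (T5), numerical form: the `q`-parts of `|M|` and `|C_M(x)|` agree modulo `p`. -/
theorem t5n (hp : p.Prime) (hq : q.Prime) (hqp : q ≠ p) (hx : x ∈ M) (o : orderOf x = p)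
    (h2 : ¬ p * p ∣ Nat.card M) (hN : M ⊓ N[zpowers x] ≤ C1[x]) {n : ℕ} (hn : ¬ q ^ (n + 1) ∣ Nat.card M) :
    Nat.gcd (Nat.card M) (q ^ n) % p = Nat.gcd (Nat.card ↥(M ⊓ C1[x])) (q ^ n) % p := by
  obtain ⟨Q, h1, -, h3, h4⟩ := t5 hp hq hqp hx o h2 hN
  rw [← syl_card_gcd hq h1 hn, ← syl_card_gcd hq h3 fun e => hn (e.trans (card_dvd_of_le inf_le_left))]
  exact h4

/-- The primes of `J₄`. -/
def lPr : List ℕ := [2, 3, 5, 7, 11, 23, 29, 31, 37, 43]

/-- The numerical condition of (T5) for a subgroup of order `m` of `J₄`, `c = |C_M(x)|`. -/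
def t5c (m p c : ℕ) : Prop := ∀ q ∈ lPr, q = p ∨ Nat.gcd m (q ^ 21) % p = Nat.gcd c (q ^ 21) % p
instance instDecT5c (m p c : ℕ) : Decidable (t5c m p c) := by unfold t5c; infer_instance

theorem t5c_of (hG : Nat.card G = 86775571046077562880) (hp : p.Prime) (hx : x ∈ M) (o : orderOf x = p)
    (h2 : ¬ p * p ∣ Nat.card M) (hN : M ⊓ N[zpowers x] ≤ C1[x]) :
    t5c (Nat.card M) p (Nat.card ↥(M ⊓ C1[x])) := fun q hq => by
  have h := (show ∀ q ∈ lPr, q.Prime ∧ ¬ q ^ (21 + 1) ∣ 86775571046077562880 by decide +kernel) q hq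
  by_cases e : q = p
  · exact .inl e
  · exact .inr (t5n hp h.1 e hx o h2 hN fun k => h.2 (k.trans (hG ▸ card_subgroup_dvd_card M)))

end Cfsg.Agent.J4T
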