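import Cfsg.Agent.J4U.A
import Cfsg.Agent.J4T.T5

/-!
# Groups of type `J₄`: more local facts
-/

set_option autoImplicit false
set_option linter.unusedSectionVars false

namespace Cfsg.Agent.J4T

open Cfsg.Agent.J4 Cfsg.Agent.J4U Cfsg.Agent.M24 Cfsg.Agent.TT Cfsg.Agent.GT Subgroup MulAction
open scoped Pointwise

/-- Local facts on a group of type `J₄`. -/
structure JT (G : Type*) [Group G] : Prop extends JF G where
  n11 : ∀ U : Subgroup G, Nat.card U = 1331 → Nat.card N[U] = 319440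
  ti : ∀ U : Subgroup G, Nat.card U = 1331 → ∀ g, ∀ u ∈ U, u ∈ cj[g] U → u ≠ 1 → g ∈ N[U]
  n5 : ∀ x : G, orderOf x = 5 → Nat.card N[zpowers x] = 26880
  n3x : ∀ x : G, orderOf x = 3 → Nat.card N[zpowers x] ≤ 5322240

theorem jt_of {G H : Type*} [Group G] [Group H] [Finite G] {ι : H →* G} {z ω : H} {s : ℕ → H} {Λ : H →* R}
    {M : GM ι z ω s Λ} {y g : H} {T : ℕ → H} {π : N[M.V] →* M24} {κ : M24 →* N[M.V]} (J : JD M y g T π κ)
    (hG : ∀ g : M24, g * g = 1 → g ≠ 1 → J.mc.Good g) : JT G := by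
  have := M.finH
  obtain ⟨x, v, D⟩ := J.exists_xd
  have E := J.el D
  have hU : ∀ U : Subgroup G, Nat.card U = 1331 → ∃ a, U = cj[a] (OC (ι x)) := fun U h =>
    J.conj_U hG D (K := U) (by rw [h]) (syl_self (by norm_num) (IsPGroup.of_card (n := 3) h))
  refine ⟨jf_of J hG, fun U h => ?_, fun U h a u hu ha h1 => ?_, fun w o => ?_, fun w o => ?_⟩
  · obtain ⟨a, rfl⟩ := hU U h
    rw [← conj_normalizer, card_conj, (J.norm_U hG D).2]
  · obtain ⟨b, rfl⟩ := hU U h
    rw [← conj_normalizer, mem_conj]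
    refine J.ti11 hG D _ (b⁻¹ * u * b) (mem_conj.1 hu) ?_ fun e => h1 ?_
    · rw [← mul_conj, mem_conj] at ha
      rw [mem_conj]
      convert ha using 1
      group
    · rw [← mul_right_inj b⁻¹, ← mul_left_inj b, e]; group
  · obtain ⟨q, ψ, P⟩ := J.exists_pt
    obtain ⟨u, -, -, -, -, h⟩ := J.norm5 P
    rw [(card_cent_prime (by norm_num) (by rw [J.card_G]; norm_num) P.ordx o).2, h]
  · obtain ⟨c, rfl⟩ := isConj_iff.1 (J.conj_ω3 o)
    rw [← conj_zpowers, ← conj_normalizer, card_conj]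
    have h1 : N[zpowers (ι ω)] ≤ (N[zpowers ω] ⊓ Lm.comap Λ).map ι := fun n hn => by
      obtain ⟨h, rfl⟩ := M.surj n (J.norm_ω hn)
      rw [← MonoidHom.map_zpowers, map_mem_norm_map_iff M.inj] at hn
      exact mem_map_of_mem ι ⟨hn, M.mem h⟩
    have h2 := card_le_of_le h1
    rwa [card_map_inj M.inj, M.card_norm_inf le_rfl, card_Lm] at h2

theorem jt_of_type {G : Type*} [Group G] [Finite G] [IsSimpleGroup G] (hG : ¬ IsMulCommutative G)
    (hJ : IsOfJankoFourType G) : JT G := by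
  obtain ⟨z, hJ⟩ := hJ
  obtain ⟨ω, s, Λ, M, y, g, T, π, κ, J, h⟩ := exists_jg hG hJ
  exact jt_of J h

end Cfsg.Agent.J4T
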