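import Cfsg.Agent.J4U.A
import Cfsg.Agent.J4T.T5

/-!
# Groups of type `J₄`: sieves for the overgroups of Sylow normalizers
-/

set_option autoImplicit false
set_option linter.unusedSectionVars false

namespace Cfsg.Agent.J4T

open Cfsg.Agent.J4 Cfsg.Agent.J4U Cfsg.Agent.GT Cfsg.Agent.PG Subgroup

/-- The condition for `11³`. -/
def s11c (m : ℕ) : Prop := m % 1331 = 0 → ∃ d ∈ dv 240, sv m 1331 (1331 * d)
instance instDecS11c (m : ℕ) : Decidable (s11c m) := by unfold s11c; infer_instance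

theorem sA29 : ∀ a < 22, ∀ b ∈ l64, ∀ c ∈ l32, 2 ^ a * (b * c) % 31 = 0 → 2 ^ a * (b * c) % 43 = 0 →
    sv (2 ^ a * (b * c)) 29 (29 * 28) → okB (2 ^ a * (b * c)) → 2 ^ a * (b * c) = 86775571046077562880 := by
  decide +kernel

theorem sA43 : ∀ a < 22, ∀ b ∈ l64, ∀ c ∈ l32, 2 ^ a * (b * c) % 29 = 0 → 2 ^ a * (b * c) % 31 = 0 →
    sv (2 ^ a * (b * c)) 43 (43 * 14) → okB (2 ^ a * (b * c)) → 2 ^ a * (b * c) = 86775571046077562880 := by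
  decide +kernel

theorem sA37 : ∀ a < 22, ∀ b ∈ l64, ∀ c ∈ l32, 2 ^ a * (b * c) % 29 = 0 → 2 ^ a * (b * c) % 43 = 0 →
    sv (2 ^ a * (b * c)) 37 (37 * 12) → okB (2 ^ a * (b * c)) → 2 ^ a * (b * c) = 86775571046077562880 := by
  decide +kernel

theorem sA11 : ∀ a < 22, ∀ b ∈ l64, ∀ c ∈ l32, 2 ^ a * (b * c) % 37 = 0 →
    sv (2 ^ a * (b * c)) 1331 319440 → okB (2 ^ a * (b * c)) → 2 ^ a * (b * c) = 86775571046077562880 := by
  decide +kernel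

theorem sB29 : ∀ a < 22, ∀ b ∈ l64, ∀ c ∈ l32, sv (2 ^ a * (b * c)) 29 (29 * 28) → t5c (2 ^ a * (b * c)) 7 28 →
    okB (2 ^ a * (b * c)) → s11c (2 ^ a * (b * c)) → 2 ^ a * (b * c) = 29 * 28 := by
  decide +kernel

theorem sB43 : ∀ a < 22, ∀ b ∈ l64, ∀ c ∈ l32, sv (2 ^ a * (b * c)) 43 (43 * 14) → t5c (2 ^ a * (b * c)) 7 14 →
    okB (2 ^ a * (b * c)) → s11c (2 ^ a * (b * c)) → 2 ^ a * (b * c) = 43 * 14 := by
  decide +kernel

/-- The conclusion of the sieve for `37`. -/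
def r37 (m : ℕ) : Prop := m % 9 ≠ 0 → m % 7 ≠ 0 → m = 37 * 12 ∨ m = 220053504
instance instDecR37 (m : ℕ) : Decidable (r37 m) := by unfold r37; infer_instance

theorem sB37 : ∀ a < 22, ∀ b ∈ l64, ∀ c ∈ l32, sv (2 ^ a * (b * c)) 37 (37 * 12) → t5c (2 ^ a * (b * c)) 3 12 →
    okB (2 ^ a * (b * c)) → r37 (2 ^ a * (b * c)) := by
  decide +kernel

theorem sB11 : ∀ a < 22, ∀ b ∈ l64, ∀ c ∈ l32, sv (2 ^ a * (b * c)) 1331 319440 → sv (2 ^ a * (b * c)) 5 240 →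
    okB (2 ^ a * (b * c)) → 2 ^ a * (b * c) = 319440 := by
  decide +kernel

end Cfsg.Agent.J4T
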