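import Cfsg.Agent.J4T.A
import Cfsg.Agent.J4T.Sv

/-!
# Groups of type `J₄`: the normalizers of the Sylow `p`-subgroups, `p = 11, 29, 37, 43`, are maximal
-/

set_option autoImplicit false
set_option linter.unusedSectionVars false

namespace Cfsg.Agent.J4T

open Cfsg.Agent.J4 Cfsg.Agent.J4U Cfsg.Agent.GT Cfsg.Agent.PG Subgroup

/-- What the explicit model gives for `p = 29, 37, 43`. -/
def IP (G : Type*) [Group G] (p e k a b : ℕ) : Prop :=
  ∃ u c : G, orderOf u = p ∧ orderOf c = e ∧ c ∈ N[zpowers u] ∧ ∀ M : Subgroup G, u ∈ M → c ∈ M →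
    ∀ g ∈ M, g ∈ N[zpowers (c ^ k)] → g ∉ zpowers c → a ∣ Nat.card M ∧ b ∣ Nat.card M

/-- What the explicit model gives for `p = 11`. -/
def I11 (G : Type*) [Group G] : Prop :=
  ∃ (U : Subgroup G) (f : G), Nat.card U = 1331 ∧ orderOf f = 5 ∧ f ∈ N[U] ∧
    240 ≤ Nat.card ↥(N[U] ⊓ N[zpowers f]) ∧
    ∀ M : Subgroup G, N[U] ≤ M → ∀ g ∈ M, g ∈ N[zpowers f] → g ∉ N[U] → 37 ∣ Nat.card M

variable {G : Type*} [Group G] [Finite G]

theorem coatom_conj {P : Subgroup G} (h : IsCoatom N[P]) (g : G) : IsCoatom N[cj[g] P] := by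
  rw [← conj_normalizer]
  refine ⟨fun k => h.1 (by rw [← one_conj N[P], ← inv_mul_cancel g, mul_conj, k, conj_top]), fun K hK => ?_⟩
  have h1 : N[P] < cj[g⁻¹] K := lt_of_le_of_ne (conj_le_iff.1 hK.le) fun k => hK.ne (by
    rw [k, ← mul_conj, mul_inv_cancel, one_conj])
  rw [← one_conj K, ← mul_inv_cancel g, mul_conj, h.2 _ h1, conj_top]

theorem coatom_syl {p : ℕ} (hp : p.Prime) {P : Subgroup G} (hP : IsPiHallOf {p} P ⊤) (h : IsCoatom N[P])
    (U : Sylow p G) : IsCoatom (normalizer ((U : Subgroup G) : Set G)) := by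
  obtain ⟨g, -, e⟩ := syl_exists_conj hp hP (syl_top_of_sylow hp U)
  rw [e]
  exact coatom_conj h g

/-- The common part of the cases `p = 29, 37, 43`. -/
theorem JT.coatom_big (F : JT G) {p e k a b : ℕ} (ht : (p, e) ∈ lBig) (h : IP G p e k a b)
    (hA : ∀ m, m ∣ 86775571046077562880 → m % a = 0 → m % b = 0 → sv m p (p * e) → okB m →
      m = 86775571046077562880)
    (hB : ∀ (K : Subgroup G) (c : G), c ∈ K → orderOf c = e → K ⊓ N[zpowers (c ^ k)] = zpowers c →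
      K ⊓ C1[c ^ k] = zpowers c → sv (Nat.card K) p (p * e) → Nat.card K = p * e) (hp : p.Prime)
    (hp2 : ¬ p * p ∣ 86775571046077562880) (U : Sylow p G) :
    IsCoatom (normalizer ((U : Subgroup G) : Set G)) := by
  obtain ⟨u, c, ou, oc, hc, h⟩ := h
  have hN := (F.big _ ht u ou).2
  rw [← F.card] at hp2
  refine coatom_syl hp (syl_zp' hp trivial ou (by rwa [card_top])) (coatom_of (fun k => hp2 ?_) fun K hK => ?_) U
  · have : (zpowers u).Normal := normalizer_eq_top_iff.1 (eq_top_of_card_eq _ k)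
    rw [hN, F.card] at k
    exact absurd k ((show ∀ t ∈ lBig, t.1 * t.2 ≠ 86775571046077562880 by decide) _ ht)
  have hu : u ∈ K := hK (le_normalizer (mem_zpowers u))
  have h1 := sv_syl hp (syl_zp' hp hu ou fun k => hp2 (k.trans (card_subgroup_dvd_card K)))
  rw [inf_eq_right.2 hK, hN] at h1
  by_cases hg : ∃ g ∈ K, g ∈ N[zpowers (c ^ k)] ∧ g ∉ zpowers c
  · obtain ⟨g, g1, g2, g3⟩ := hg
    obtain ⟨k1, k2⟩ := h K hu (hK hc) g g1 g2 g3
    exact .inr ((hA _ (F.card ▸ card_subgroup_dvd_card K) (Nat.mod_eq_zero_of_dvd k1) (Nat.mod_eq_zero_of_dvd k2) h1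
      (F.okB K)).trans F.card.symm)
  · push Not at hg
    have h2 : zpowers c ≤ K ⊓ C1[c ^ k] := zpowers_le.2 ⟨hK hc, mem_cent1.2 (Commute.self_pow c k).eq⟩
    have h3 : K ⊓ C1[c ^ k] ≤ K ⊓ N[zpowers (c ^ k)] := inf_le_inf_left _ (cent_zpowers (c ^ k) ▸ cent_le_norm _)
    have h4 : K ⊓ N[zpowers (c ^ k)] ≤ zpowers c := fun g k => hg g k.1 k.2
    exact .inl ((hB K c (hK hc) oc (le_antisymm h4 (h2.trans h3)) (le_antisymm (h3.trans h4) h2) h1).trans hN.symm)

theorem JT.t7 (F : JT G) {K : Subgroup G} {c : G} {e k : ℕ} (hc : c ∈ K) (oc : orderOf c = e)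
    (o : orderOf (c ^ k) = 7) (h1 : K ⊓ N[zpowers (c ^ k)] = zpowers c) (h2 : K ⊓ C1[c ^ k] = zpowers c) :
    t5c (Nat.card K) 7 e := by
  have := t5c_of F.card (by norm_num) (pow_mem hc k) o (fun h => absurd (h.trans (card_subgroup_dvd_card K))
    (by rw [F.card]; norm_num)) (by rw [h1, ← h2]; exact inf_le_right)
  rwa [h2, Nat.card_zpowers, oc] at this

theorem JT.coatom29 (F : JT G) (h : IP G 29 28 4 31 43) (U : Sylow 29 G) :
    IsCoatom (normalizer ((U : Subgroup G) : Set G)) := by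
  refine F.coatom_big (by decide) h (fun m hm => ?_) (fun K c hc oc h1 h2 h3 => ?_) (by norm_num) (by norm_num) U
  · obtain ⟨a, ha, b, hb, c, hc, rfl⟩ := exists_fac hm
    exact sA29 a ha b hb c hc
  · have h4 := F.t7 hc oc (by rw [orderOf_pow' _ (by norm_num), oc]; norm_num) h1 h2
    have h5 := F.okB K
    have h6 : s11c _ := F.s11 K
    obtain ⟨a, ha, b, hb, c, hc, e⟩ := exists_fac (F.card ▸ card_subgroup_dvd_card K)
    rw [e] at h3 h4 h5 h6 ⊢
    exact sB29 a ha b hb c hc h3 h4 h5 h6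

theorem JT.coatom43 (F : JT G) (h : IP G 43 14 2 29 31) (U : Sylow 43 G) :
    IsCoatom (normalizer ((U : Subgroup G) : Set G)) := by
  refine F.coatom_big (by decide) h (fun m hm => ?_) (fun K c hc oc h1 h2 h3 => ?_) (by norm_num) (by norm_num) U
  · obtain ⟨a, ha, b, hb, c, hc, rfl⟩ := exists_fac hm
    exact sA43 a ha b hb c hc
  · have h4 := F.t7 hc oc (by rw [orderOf_pow' _ (by norm_num), oc]; norm_num) h1 h2
    have h5 := F.okB K
    have h6 : s11c _ := F.s11 K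
    obtain ⟨a, ha, b, hb, c, hc, e⟩ := exists_fac (F.card ▸ card_subgroup_dvd_card K)
    rw [e] at h3 h4 h5 h6 ⊢
    exact sB43 a ha b hb c hc h3 h4 h5 h6

/-- A subgroup of order prime to `3` has order not divisible by `7·37`. -/
theorem JT.not7 (F : JT G) {L : Subgroup G} (h3 : ¬ 3 ∣ Nat.card L) (h7 : 7 ∣ Nat.card L)
    (h37 : 37 ∣ Nat.card L) : False := by
  obtain ⟨y, hy, o⟩ := exists_mem_orderOf_eq (by norm_num) h7
  obtain ⟨c1, c2⟩ := F.c7 y o
  have h1 := card_mul_relIndex (cent_le_norm (zpowers y))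
  rw [cent_zpowers, c1, c2] at h1
  have h2 : (C1[y]).relIndex N[zpowers y] = 3 := by omega
  have hN : L ⊓ N[zpowers y] ≤ C1[y] := fun n hn => by
    refine mem_of_pow_mem_of_coprime_orderOf (m := 3) ?_ ?_
    · rw [← h2]
      exact pow_relIndex_mem' (cent_zpowers y ▸ norm_le_norm_cent _) hn.2
    · exact ((Nat.Prime.coprime_iff_not_dvd Nat.prime_three).2 fun k =>
        h3 (k.trans (orderOf_dvd_card_of_mem hn.1))).symm
  have hd := F.card ▸ card_subgroup_dvd_card L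
  have h4 := t5n (q := 37) (n := 1) (by norm_num) (by norm_num) (by norm_num) hy o
    (fun h => absurd (h.trans hd) (by norm_num)) hN fun h => absurd (h.trans hd) (by norm_num)
  have h5 : Nat.Coprime (Nat.card ↥(L ⊓ C1[y])) (37 ^ 1) :=
    Nat.Coprime.coprime_dvd_left (c1 ▸ card_dvd_of_le inf_le_right) (by norm_num)
  rw [h5.gcd_eq_one, pow_one, Nat.gcd_eq_right h37] at h4
  omega

theorem JT.syl11 (F : JT G) {U : Subgroup G} (h : IsPiHallOf {11} U ⊤) : Nat.card U = 1331 := by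
  rw [syl_card_gcd (n := 3) (by norm_num) h (by rw [card_top, F.card]; norm_num), card_top, F.card]
  norm_num

theorem JT.norm_le (F : JT G) {Q U : Subgroup G} (hU : Nat.card U = 1331) (h : Q ≤ U) (hQ : Q ≠ ⊥) :
    N[Q] ≤ N[U] := fun g hg => by
  obtain ⟨⟨u, hu⟩, h1⟩ := ne_bot_iff_exists_ne_one.1 hQ
  refine F.ti U hU g (g * u * g⁻¹) (h (conj_mem_of_mem_norm hg hu)) (conj_mem_conj.2 (h hu)) fun e => h1 ?_
  exact Subtype.ext (conj_eq_one_iff.1 e)

theorem JT.coatom37 (F : JT G) (h : IP G 37 12 4 29 43) (U : Sylow 37 G) :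
    IsCoatom (normalizer ((U : Subgroup G) : Set G)) := by
  refine F.coatom_big (by decide) h (fun m hm => ?_) (fun K c hc oc h1 h2 h3 => ?_) (by norm_num) (by norm_num) U
  · obtain ⟨a, ha, b, hb, c, hc, rfl⟩ := exists_fac hm
    exact sA37 a ha b hb c hc
  have o : orderOf (c ^ 4) = 3 := by rw [orderOf_pow' _ (by norm_num), oc]; norm_num
  have hx := pow_mem hc 4
  have hS : IsPiHallOf {3} (zpowers (c ^ 4)) K := syl_of_syl_norm Nat.prime_three (by
    rw [h1]; exact syl_zp' Nat.prime_three (npow_mem_zpowers c 4) o (by rw [Nat.card_zpowers, oc]; norm_num))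
  have h9 : ¬ 3 * 3 ∣ Nat.card K := fun k => absurd
    (hS.dvd_card (piNat_single_pow Nat.prime_three 2) k) (by rw [Nat.card_zpowers, o]; norm_num)
  have hN : K ⊓ N[zpowers (c ^ 4)] ≤ C1[c ^ 4] := by rw [h1, ← h2]; exact inf_le_right
  have h4 := t5c_of F.card Nat.prime_three hx o h9 hN
  rw [h2, Nat.card_zpowers, oc] at h4
  have hL := t5_hall Nat.prime_three hx o h9 hN
  have h7 : ¬ 7 ∣ Nat.card K := fun k => F.not7 (L := piCoreOf {3}ᶜ K)
    ((piNat_single_compl_iff Nat.prime_three).1 hL.isPi)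
    (hL.dvd_card ((piNat_single_compl_iff Nat.prime_three).2 (by norm_num)) k)
    (hL.dvd_card ((piNat_single_compl_iff Nat.prime_three).2 (by norm_num))
      ((Dvd.intro _ rfl).trans (Nat.dvd_of_mod_eq_zero h3.1)))
  have h5 := F.okB K
  obtain ⟨a, ha, b, hb, d, hd, e⟩ := exists_fac (F.card ▸ card_subgroup_dvd_card K)
  have h6 := sB37 a ha b hb d hd (e ▸ h3) (e ▸ h4) (e ▸ h5) (fun k => h9 (e ▸ Nat.dvd_of_mod_eq_zero k))
    fun k => h7 (e ▸ Nat.dvd_of_mod_eq_zero k)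
  rw [← e] at h6
  refine h6.resolve_right fun e' => ?_
  obtain ⟨Q, q1, q2, -⟩ := t5 (q := 11) Nat.prime_three (by norm_num) (by norm_num) hx o h9 hN
  have q3 : Nat.card Q = 121 := by
    rw [syl_card_gcd (n := 2) (by norm_num) q1 (by rw [e']; norm_num), e']; norm_num
  obtain ⟨U, u1, u2⟩ := exists_syl_ge (M := ⊤) (by norm_num) (syl_isPGroup (by norm_num) q1) le_top
  have u3 := F.syl11 u1
  have q4 := card_dvd_of_le (inf_le_right.trans (F.norm_le u3 u2 fun k => by rw [k, card_bot] at q3; omega) :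
    K ⊓ N[Q] ≤ _)
  have q5 := sv_syl (by norm_num) q1
  have q6 : 121 * 3 ∣ Nat.card ↥(K ⊓ N[Q]) := Nat.Coprime.mul_dvd_of_dvd_of_dvd (by norm_num)
    (q3 ▸ card_dvd_of_le (le_inf q1.le le_normalizer)) (o ▸ orderOf_dvd_card_of_mem ⟨hx, q2⟩)
  obtain ⟨n, hn⟩ := q6
  rw [F.n11 U u3, hn] at q4
  rw [e', hn] at q5
  exact (show ∀ n ∈ dv 880, ¬ sv 220053504 11 (121 * 3 * n) by decide +kernel) n
    (mem_dv (by norm_num) (Nat.dvd_of_mul_dvd_mul_left (by norm_num : 0 < 121 * 3) q4)) q5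

theorem JT.sv11 (F : JT G) {U K : Subgroup G} (hU : Nat.card U = 1331) (h : U ≤ K) :
    sv (Nat.card K) 1331 (Nat.card ↥(K ⊓ N[U])) := by
  obtain ⟨P, hP⟩ := exists_syl (p := 11) (by norm_num) (⊤ : Subgroup G)
  have := sv_ti (by norm_num) (syl_of_card_le (by norm_num) hP (IsPGroup.of_card (n := 3) hU) le_top
    (by rw [F.syl11 hP, hU])) h (by omega) (F.ti U hU)
  rwa [hU] at this

theorem JT.coatom11 (F : JT G) (h : I11 G) (U : Sylow 11 G) :
    IsCoatom (normalizer ((U : Subgroup G) : Set G)) := by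
  obtain ⟨P, f, hP, o, hf, h1, h⟩ := h
  have hN := F.n11 P hP
  obtain ⟨P', hP'⟩ := exists_syl (p := 11) (by norm_num) (⊤ : Subgroup G)
  refine coatom_syl (by norm_num) (syl_of_card_le (by norm_num) hP' (IsPGroup.of_card (n := 3) hP) le_top
    (by rw [F.syl11 hP', hP])) (coatom_of (by rw [hN, F.card]; norm_num) fun K hK => ?_) U
  have h2 := F.sv11 hP (le_normalizer.trans hK)
  rw [inf_eq_right.2 hK, hN] at h2
  have h5 := F.okB K
  obtain ⟨a, ha, b, hb, d, hd, e⟩ := exists_fac (F.card ▸ card_subgroup_dvd_card K)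
  by_cases hg : ∃ g ∈ K, g ∈ N[zpowers f] ∧ g ∉ N[P]
  · obtain ⟨g, g1, g2, g3⟩ := hg
    have h3 := Nat.mod_eq_zero_of_dvd (h K hK g g1 g2 g3)
    rw [F.card, e]
    exact .inr (sA11 a ha b hb d hd (e ▸ h3) (e ▸ h2) (e ▸ h5))
  · push Not at hg
    have h3 : K ⊓ N[zpowers f] = N[P] ⊓ N[zpowers f] :=
      le_antisymm (fun g k => ⟨hg g k.1 k.2, k.2⟩) (inf_le_inf_right _ hK)
    have h4 := sv_syl (by norm_num) (syl_zp' (p := 5) (by norm_num) (hK hf) o fun k =>
      absurd (k.trans (card_subgroup_dvd_card K)) (by rw [F.card]; norm_num))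
    have h6 : Nat.card ↥(N[P] ⊓ N[zpowers f]) ∣ 240 := by
      have := Nat.dvd_gcd (hN ▸ card_dvd_of_le (inf_le_left : N[P] ⊓ N[zpowers f] ≤ _))
        (F.n5 f o ▸ card_dvd_of_le (inf_le_right : N[P] ⊓ N[zpowers f] ≤ _))
      exact this
    rw [h3, le_antisymm (Nat.le_of_dvd (by norm_num) h6) h1] at h4
    rw [hN, e]
    exact .inl (sB11 a ha b hb d hd (e ▸ h2) (e ▸ h4) (e ▸ h5))

end Cfsg.Agent.J4T
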