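import Cfsg.Agent.J4T.B
import Cfsg.Agent.JQ.D

/-!
# Groups of type `J₄`: the local maximal subgroups, modulo the data from the explicit model
-/

set_option autoImplicit false
set_option linter.unusedSectionVars false

namespace Cfsg.Agent.J4T

open Cfsg.Agent.J4 Cfsg.Agent.J4U Cfsg.Agent.GT Cfsg.Agent.PG Subgroup

theorem jt_iso {G : Type*} [Group G] [Finite G] [IsSimpleGroup G] (hG : ¬ IsMulCommutative G) {z : G}
    (hJ : IsOfJankoFourTypeAt z) : JT G ∧ Nonempty (G ≃* Spor.J4) := by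
  obtain ⟨ω, s, Λ, M, y, g, T, π, κ, J, h⟩ := exists_jg hG hJ
  exact ⟨jt_of J h, JQ.iso_of_gm hG M⟩

theorem two_local {G : Type*} [Group G] [Finite G] [IsSimpleGroup G] (hG : ¬ IsMulCommutative G) {z : G}
    (hJ : IsOfJankoFourTypeAt z) : IsCoatom (centralizer ({z} : Set G)) ∧
    (∀ V : Subgroup G, IsElementaryAbelian 2 V → Nat.card V = 2 ^ 11 → IsCoatom (normalizer (V : Set G))) ∧
    (∀ A : Subgroup G, IsElementaryAbelian 2 A → Nat.card A = 2 ^ 10 → centralizer (A : Set G) = A →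
      IsCoatom (normalizer (A : Set G))) ∧
    ∃ L : Subgroup G, IsSpecial 2 L ∧ Nat.card L = 2 ^ 15 ∧ Nat.card (center L) = 8 ∧
      IsCoatom (normalizer (L : Set G)) := by
  obtain ⟨ω, s, Λ, M, y, g, T, π, κ, J, h⟩ := exists_jg hG hJ
  obtain ⟨q, ψ, P⟩ := J.exists_pt
  refine ⟨J.coatom_H h, fun V hV hc => ?_, fun A hA hc hs => ?_,
    M.L, (J.special P).1, M.card_L, (J.special P).2, J.coatom_L h⟩
  · obtain ⟨x, hx⟩ := M.conj_eq_V (sq_of_elem hV) hc.ge
    rw [conj_eq_iff.1 hx]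
    exact coatom_conj (J.coatom_V h) _
  · obtain ⟨x, hx⟩ := M.conj_A' hA hc hs
    rw [conj_eq_iff.1 hx]
    exact coatom_conj (J.coatom_A h) _

/-- The four odd local conjuncts, modulo the data from the explicit model. -/
theorem odd_local {G : Type*} [Group G] [Finite G] (F : JT G)
    (m29 : (∀ x : G, orderOf x = 7 → Nat.card N[zpowers x] ≤ 2520) → IP G 29 28 4 31 43)
    (m43 : (∀ x : G, orderOf x = 7 → Nat.card N[zpowers x] ≤ 2520) → IP G 43 14 2 29 31)
    (m37 : (∀ x : G, orderOf x = 3 → Nat.card N[zpowers x] ≤ 5322240) → IP G 37 12 4 29 43)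
    (m11 : (∀ x : G, orderOf x = 5 → Nat.card N[zpowers x] ≤ 26880) → I11 G) :
    (∀ U : Sylow 11 G, IsCoatom (normalizer ((U : Subgroup G) : Set G))) ∧
    (∀ U : Sylow 29 G, IsCoatom (normalizer ((U : Subgroup G) : Set G))) ∧
    (∀ U : Sylow 37 G, IsCoatom (normalizer ((U : Subgroup G) : Set G))) ∧
    ∀ U : Sylow 43 G, IsCoatom (normalizer ((U : Subgroup G) : Set G)) :=
  ⟨F.coatom11 (m11 fun x o => (F.n5 x o).le), F.coatom29 (m29 fun x o => (F.c7 x o).2.le),
    F.coatom37 (m37 F.n3x), F.coatom43 (m43 fun x o => (F.c7 x o).2.le)⟩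

end Cfsg.Agent.J4T
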